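import Mathlib
import Cfsg.Agent.Lib.Helper99.C64.Defs

/-!
# C64 (S6000), package [BIG]

Cauchy: for a prime `r ≥ 7` dividing `|SL_4(F)|` there is a non-scalar `x ∈ SL_4` with `x ^ r = 1`
(a scalar of `SL_4` has order dividing 4).
-/

set_option autoImplicit false

namespace Cfsg.Agent.Lib.Helper45.C64

open Cfsg.Agent.Lib.Helper99.C64

universe u

theorem pkgBig : PkgBig.{u} := by
  intro F _ _ r hr h7 hdvd
  have hfact : Fact r.Prime := ⟨hr⟩
  obtain ⟨x, hx⟩ := exists_prime_orderOf_dvd_card' r hdvd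
  refine ⟨(x : GL (Fin 4) F), x.2, ?_, ?_⟩
  · have h := pow_orderOf_eq_one x
    rw [hx] at h
    have h2 := congrArg Subtype.val h
    simpa using h2
  · rintro ⟨z, hz⟩
    have hdet : Matrix.det ((x : GL (Fin 4) F) : M4 F) = 1 := by
      have h1 : (x : GL (Fin 4) F) ∈ (Matrix.GeneralLinearGroup.det : GL (Fin 4) F →* Fˣ).ker :=
        x.2
      have h2 : Matrix.GeneralLinearGroup.det (x : GL (Fin 4) F) = 1 := MonoidHom.mem_ker.1 h1
      have h3 := congrArg Units.val h2
      simpa using h3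
    rw [hz, Matrix.det_smul, Matrix.det_one, mul_one, Fintype.card_fin] at hdet
    have h4 : (x : GL (Fin 4) F) ^ 4 = 1 := by
      apply Units.ext
      rw [Units.val_pow_eq_pow_val, hz, smul_pow, one_pow, hdet, one_smul]
      rfl
    have h5 : x ^ 4 = 1 := Subtype.ext (by simpa using h4)
    have h6 : orderOf x ∣ 4 := orderOf_dvd_of_pow_eq_one h5
    rw [hx] at h6
    have h8 := Nat.le_of_dvd (by norm_num) h6
    omega

end Cfsg.Agent.Lib.Helper45.C64
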