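import Mathlib
import Cfsg.Agent.Lib.Helper99.C64.Defs

/-!
# C64 (S6000), packages [CENTALL], [CENTDIV], [CENTCNT] (from [R0])

* [CENTALL] an element centralizing `R0` is scalar.
* [CENTDIV] `4 ∣ |C_{R0}(y)| ∣ 64`.
* [CENTCNT] `|C_{R0}(y)| ≡ 64 mod r` for `y ∈ N(R0)` with `y ^ r = 1`, `r` prime.
-/

set_option autoImplicit false

namespace Cfsg.Agent.Lib.Helper45.C64

open Cfsg.Agent.Lib.Helper99.C64

universe u

theorem pkgCentAll_of (h : PkgR0.{u}) : PkgCentAll.{u} := by
  intro F _ _ h2 ι hι y hcard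
  obtain ⟨hc64, -, -, -, -, -, hcomm, -, -⟩ := h F h2 ι hι
  have hle : C0 ι y ≤ R0 ι := inf_le_left
  have heq : C0 ι y = R0 ι := by
    apply Subgroup.eq_of_le_of_card_ge hle
    rw [hcard, hc64]
  obtain ⟨c, hc⟩ := hcomm (y : M4 F) (by
    intro g hg
    rw [← heq] at hg
    have h1 : g ∈ Subgroup.centralizer {y} := (Subgroup.mem_inf.1 hg).2
    rw [Subgroup.mem_centralizer_iff] at h1
    have h3 := h1 y rfl
    have h4 := congrArg (fun t : GL (Fin 4) F => (t : M4 F)) h3
    simp only [Units.val_mul] at h4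
    exact h4.symm)
  exact ⟨c, hc⟩

theorem pkgCentDiv_of (h : PkgR0.{u}) : PkgCentDiv.{u} := by
  intro F _ _ h2 ι hι y
  obtain ⟨hc64, -, -, hscal, -, -, -, -, -⟩ := h F h2 ι hι
  constructor
  · have hι4 : ι ^ 4 = 1 := by
      have h1 : ι ^ 4 = (ι ^ 2) ^ 2 := by ring
      rw [h1, hι]
      ring
    obtain ⟨z, hzR, hz⟩ := hscal ι hι4
    have hfact : Fact (Nat.Prime 2) := ⟨Nat.prime_two⟩
    have hzo : orderOf z = 4 := by
      have h1 : z ^ 2 ≠ 1 := by
        intro h
        have h3 : ((z ^ 2 : GL (Fin 4) F) : M4 F) = 1 := by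
          rw [h]
          rfl
        rw [Units.val_pow_eq_pow_val, hz, smul_pow, one_pow, hι] at h3
        have h5 := congrFun (congrFun h3 0) 0
        simp at h5
        apply h2
        linear_combination (-1 : F) * h5
      have h4 : z ^ 4 = 1 := by
        apply Units.ext
        rw [Units.val_pow_eq_pow_val, hz, smul_pow, one_pow, hι4, one_smul]
        rfl
      have h5 := orderOf_eq_prime_pow (x := z) (p := 2) (n := 1) (by rw [pow_one]; exact h1)
        (by norm_num; exact h4)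
      norm_num at h5
      exact h5
    have hzC : z ∈ C0 ι y := by
      refine Subgroup.mem_inf.2 ⟨hzR, ?_⟩
      rw [Subgroup.mem_centralizer_iff]
      intro k hk
      rw [Set.mem_singleton_iff] at hk
      rw [hk]
      apply Units.ext
      rw [Units.val_mul, Units.val_mul, hz]
      simp
    have hdvd : orderOf z ∣ Nat.card (C0 ι y) := by
      have h1 := orderOf_dvd_natCard (⟨z, hzC⟩ : C0 ι y)
      rwa [Subgroup.orderOf_mk] at h1
    rw [hzo] at hdvd
    exact hdvd
  · rw [← hc64]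
    exact Subgroup.card_dvd_of_le inf_le_left

theorem pkgCentCnt_of (h : PkgR0.{u}) : PkgCentCnt.{u} := by
  intro F _ _ h2 ι hι y hy r hr hyr
  classical
  obtain ⟨hc64, -⟩ := h F h2 ι hι
  have hfact : Fact r.Prime := ⟨hr⟩
  have hN : ∀ g : GL (Fin 4) F, g ∈ R0 ι ↔ y * g * y⁻¹ ∈ R0 ι := Subgroup.mem_normalizer_iff.1 hy
  have hFin : Fintype (R0 ι) := Fintype.ofFinite _
  obtain ⟨f, hf⟩ : ∃ f : Function.End (R0 ι),
      ∀ g : R0 ι, ((f g : R0 ι) : GL (Fin 4) F) = y * g * y⁻¹ :=
    ⟨fun g => ⟨y * g * y⁻¹, (hN g).1 g.2⟩, fun g => rfl⟩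
  have hfpow : ∀ n : ℕ, ∀ g : R0 ι,
      (((f ^ n) g : R0 ι) : GL (Fin 4) F) = y ^ n * g * (y ^ n)⁻¹ := by
    intro n
    induction n with
    | zero =>
      intro g
      rw [pow_zero, pow_zero, one_mul, inv_one, mul_one]
      rfl
    | succ n ih =>
      intro g
      rw [pow_succ]
      show (((f ^ n) (f g) : R0 ι) : GL (Fin 4) F) = _
      rw [ih, hf, pow_succ]
      simp only [mul_inv_rev, mul_assoc]
  have hfr : f ^ r ^ 1 = 1 := by
    funext g
    apply Subtype.ext
    rw [pow_one, hfpow, hyr, one_mul, inv_one, mul_one]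
    rfl
  have hmod := Equiv.Perm.card_fixedPoints_modEq (f := f) (p := r) (n := 1) hfr
  rw [Fintype.card_eq_nat_card, Fintype.card_eq_nat_card, hc64] at hmod
  have hfixmem : ∀ g : R0 ι, g ∈ Function.fixedPoints f ↔ y * (g : GL (Fin 4) F) = g * y := by
    intro g
    show f g = g ↔ _
    rw [Subtype.ext_iff, hf]
    constructor
    · intro h1
      calc y * (g : GL (Fin 4) F) = (y * g * y⁻¹) * y := by group
        _ = g * y := by rw [h1]
    · intro h1
      rw [h1]
      group
  have hfix : Nat.card (Function.fixedPoints f) = Nat.card (C0 ι y) := by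
    apply Nat.card_eq_of_bijective
      (fun g : Function.fixedPoints f => (⟨((g : R0 ι) : GL (Fin 4) F), Subgroup.mem_inf.2
        ⟨(g : R0 ι).2, by
          rw [Subgroup.mem_centralizer_iff]
          intro k hk
          rw [Set.mem_singleton_iff] at hk
          rw [hk]
          exact (hfixmem g).1 g.2⟩⟩ : C0 ι y))
    constructor
    · intro a b hab
      have h1 := congrArg Subtype.val hab
      exact Subtype.ext (Subtype.ext h1)
    · intro g
      have hg := Subgroup.mem_inf.1 g.2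
      have hgc := hg.2
      rw [Subgroup.mem_centralizer_iff] at hgc
      exact ⟨⟨⟨g, hg.1⟩, (hfixmem ⟨g, hg.1⟩).2 (hgc y rfl)⟩, Subtype.ext rfl⟩
  rw [hfix] at hmod
  exact hmod.symm

end Cfsg.Agent.Lib.Helper45.C64
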